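/-
Linear algebra for the spaces with triality.
-/
import Cfsg.Agent.Th.Fin
set_option autoImplicit false

namespace CA.Th
open QuadraticMap Cfsg Cfsg.Agent Module

universe u v
variable {K : Type*} [Field K]

theorem finrank_le_of_comp {V : Type*} [AddCommGroup V] [Module K V] [FiniteDimensional K V] (N M : V →ₗ[K] V)
    (h : ∀ v, M (N v) = 0) : finrank K V ≤ finrank K (LinearMap.ker M) + finrank K (LinearMap.ker N) := by
  rw [← N.finrank_range_add_finrank_ker]
  exact Nat.add_le_add_right (Submodule.finrank_mono (by rintro _ ⟨v, rfl⟩; exact h v)) _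

theorem two_pow_dvd (k : ℕ) : ∀ (V : Type u) [AddCommGroup V] [Module K V] [FiniteDimensional K V]
    (N M : Fin k → V →ₗ[K] V), (∀ i v, N i (N i v) = 0) → (∀ i v, N i (M i v) + M i (N i v) = v) →
    (∀ i j, i ≠ j → ∀ v, N i v = 0 → N i (N j v) = 0 ∧ N i (M j v) = 0) → 2 ^ k ∣ finrank K V := by
  induction k with
  | zero => intros; exact one_dvd _
  | succ k ih =>
    intro V _ _ _ N M h1 h2 h3
    have e : LinearMap.range (N 0) = LinearMap.ker (N 0) := by
      refine le_antisymm (by rintro _ ⟨v, rfl⟩; exact h1 0 v) fun v hv => ⟨M 0 v, ?_⟩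
      have := h2 0 v
      rwa [show N 0 v = 0 from hv, map_zero, add_zero] at this
    rw [← (N 0).finrank_range_add_finrank_ker, e, ← two_mul, pow_succ']
    refine Nat.mul_dvd_mul_left 2 (ih (LinearMap.ker (N 0))
      (fun i => (N i.succ).restrict fun v hv => (h3 0 _ (Fin.succ_ne_zero i).symm v hv).1)
      (fun i => (M i.succ).restrict fun v hv => (h3 0 _ (Fin.succ_ne_zero i).symm v hv).2)
      (fun i v => Subtype.ext (h1 _ _)) (fun i v => Subtype.ext (h2 _ _)) fun i j n v hv => ?_)
    have := h3 i.succ j.succ (fun e => n (Fin.succ_injective _ e)) v (congrArg Subtype.val hv)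
    exact ⟨Subtype.ext this.1, Subtype.ext this.2⟩

theorem two_pow_dvd' {ι V : Type*} [Fintype ι] [AddCommGroup V] [Module K V] [FiniteDimensional K V]
    (N M : ι → V →ₗ[K] V) (h1 : ∀ i v, N i (N i v) = 0) (h2 : ∀ i v, N i (M i v) + M i (N i v) = v)
    (h3 : ∀ i j, i ≠ j → ∀ v, N i v = 0 → N i (N j v) = 0 ∧ N i (M j v) = 0) : 2 ^ Fintype.card ι ∣ finrank K V :=
  two_pow_dvd _ V (fun i => N ((Fintype.equivFin ι).symm i)) (fun i => M ((Fintype.equivFin ι).symm i))
    (fun _ => h1 _) (fun _ => h2 _) fun _ _ n => h3 _ _ fun e => n ((Fintype.equivFin ι).symm.injective e)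

theorem exists_plus (n : ℕ) : ∀ (V : Type u) [AddCommGroup V] [Module K V] [FiniteDimensional K V]
    (Q : QuadraticForm K V) (W : Type v) [AddCommGroup W] [Module K W] (j : W →ₗ[K] V), Orth.Nondeg Q →
    finrank K V = n → Function.Injective j → (∀ w, Q (j w) = 0) → n ≤ 2 * finrank K W →
    ∃ m, ∃ φ : V ≃ₗ[K] (Fin m → K) × (Fin m → K) × Unit, ∀ x, Orth.hsum m (0 : QuadraticForm K Unit) (φ x) = Q x := by
  induction n using Nat.strong_induction_on with | _ n ih =>
  intro V _ _ _ Q W _ _ j hQ hn hj h0 hW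
  obtain hV | hV := subsingleton_or_nontrivial V
  · exact ⟨0, LinearEquiv.ofSubsingleton _ _, fun x => by simp [Subsingleton.elim x 0]⟩
  have := FiniteDimensional.of_injective j hj
  have : Nontrivial W := (finrank_pos_iff (R := K)).1 (by have := finrank_pos (R := K) (M := V); omega)
  obtain ⟨e, he⟩ := exists_ne (0 : W)
  obtain ⟨f, h⟩ := hQ.exists_HP (h0 e) (fun h => he (hj (h.trans (map_zero j).symm)))
  have h1 : ∀ w, polar Q (j e) (j w) = 0 := fun w => by rw [polar, ← map_add, h0, h0, h0, sub_zero, sub_zero]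
  let ψ := (Q.polarBilin f).comp j
  have h2 := ψ.finrank_range_add_finrank_ker
  have h3 : finrank K (LinearMap.range ψ) ≤ 1 := (Submodule.finrank_le _).trans (finrank_self K).le
  have h4 := h.finrank_perp2
  obtain ⟨m, φ, hφ⟩ := ih _ (by omega) _ _ (LinearMap.ker ψ) ((j.comp (LinearMap.ker ψ).subtype).codRestrict
    (Orth.perp2 Q (j e) f) fun w => Orth.mem_perp2.2 ⟨h1 _, w.2⟩) (h.nondeg_perp2 hQ) rfl
    (fun a b e => Subtype.ext (hj (congrArg Subtype.val e))) (fun w => h0 _) (by omega)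
  exact ⟨m + 1, h.exists_equiv_hsum φ hφ⟩

/-- A hyperbolic family of vectors. -/
structure HF {V ι : Type*} [AddCommGroup V] [Module K V] [DecidableEq ι] (Q : QuadraticForm K V) (e f : ι → V) :
    Prop where
  e0 : ∀ i, Q (e i) = 0
  f0 : ∀ i, Q (f i) = 0
  ee : ∀ i j, polar Q (e i) (e j) = 0
  ff : ∀ i j, polar Q (f i) (f j) = 0
  ef : ∀ i j, polar Q (e i) (f j) = if i = j then 1 else 0
  fe : ∀ i j, polar Q (f i) (e j) = if i = j then 1 else 0

theorem exists_HF {V : Type*} [AddCommGroup V] [Module K V] {Q : QuadraticForm K V} {m : ℕ}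
    (φ : V ≃ₗ[K] (Fin m → K) × (Fin m → K) × Unit) (hφ : ∀ x, Orth.hsum m (0 : QuadraticForm K Unit) (φ x) = Q x)
    (ι : Type*) [Fintype ι] [DecidableEq ι] (h : Fintype.card ι ≤ m) : ∃ e f : ι → V, HF Q e f := by
  obtain ⟨p⟩ := Function.Embedding.nonempty_of_card_le (h.trans (Fintype.card_fin m).ge)
  have h1 : ∀ x, Q (φ.symm x) = _ := fun x => by rw [← hφ, φ.apply_symm_apply]
  have h2 := Orth.polar_congr φ.symm.toLinearMap h1
  simp only [LinearEquiv.coe_coe] at h2
  have h3 : polar (0 : Unit → K) () () = 0 := by simp [polar]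
  refine ⟨fun i => φ.symm (Pi.single (p i) 1, 0, ()), fun i => φ.symm (0, Pi.single (p i) 1, ()), ?_, ?_, ?_, ?_, ?_, ?_⟩ <;>
    simp [h1, h2, h3, Orth.hsum_apply, Orth.polar_hsum, Pi.single_apply, eq_comm]

theorem ext_ns {V W : Type*} [AddCommGroup V] [Module K V] [FiniteDimensional K V] [AddCommGroup W] [Module K W]
    {Q : QuadraticForm K V} (hQ : Orth.Nondeg Q) (h5 : 5 ≤ finrank K V) (f : V →ₗ[K] W) (h : ∀ v, Q v ≠ 0 → f v = 0)
    (v : V) : f v = 0 := by
  by_cases h0 : Q v = 0
  · obtain ⟨w, h1, -, h2⟩ := hQ.exists_orth_pair h5 v v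
    have := h (v + w) (by rwa [Orth.Q_add, h0, h1, zero_add, add_zero])
    rwa [map_add, h w h2, add_zero] at this
  · exact h v h0

theorem pow_four {k : ℕ} (h : 2 ≤ k) (d : 2 ^ k ∣ 2 * (k + 1)) : k = 3 := by
  have : ∀ k, 4 ≤ k → 2 * (k + 1) < 2 ^ k := fun k hk => by
    induction k, hk using Nat.le_induction with
    | base => norm_num
    | succ k _ ih => rw [pow_succ]; omega
  by_cases h4 : 4 ≤ k
  · exact absurd (Nat.le_of_dvd (by omega) d) (not_le.2 (this k h4))
  · obtain rfl | rfl : k = 2 ∨ k = 3 := by omega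
    · exact absurd d (by norm_num)
    · rfl

theorem pow_four' {m : ℕ} (h : 3 ≤ m) (d : 2 ^ ((m - 1) / 2 * 2) ∣ 2 * m) : m = 4 := by
  have : ∀ k, 2 ≤ k → 4 * k + 4 < 2 ^ (k * 2) := fun k hk => by
    induction k, hk using Nat.le_induction with
    | base => norm_num
    | succ k _ ih => rw [add_mul, pow_add]; omega
  by_cases h4 : 5 ≤ m
  · have := this ((m - 1) / 2) (by omega)
    have := Nat.le_of_dvd (by omega) d
    omega
  · obtain rfl | rfl : m = 3 ∨ m = 4 := by omega
    · exact absurd d (by norm_num)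
    · rfl

section three
variable {V : Type u} [AddCommGroup V] [Module (ZMod 3) V] [FiniteDimensional (ZMod 3) V] {Q : QuadraticForm (ZMod 3) V}

theorem z3_half {W : Type*} [AddCommGroup W] [Module (ZMod 3) W] {x : W} (h : x + x = 0) : x = 0 := by
  have t : (3 : ZMod 3) • x = 0 := zero_smul _ _
  linear_combination (norm := module) t - h

theorem ext_one {W : Type*} [AddCommGroup W] [Module (ZMod 3) W] (hQ : Orth.Nondeg Q) (h5 : 5 ≤ finrank (ZMod 3) V)
    (f : V →ₗ[ZMod 3] W) (h : ∀ v, Q v = 1 → f v = 0) (v : V) : f v = 0 := by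
  refine ext_ns hQ h5 f (fun v hv => ?_) v
  obtain h0 | h0 | h0 := z3_cases (Q v)
  · exact absurd h0 hv
  · exact h v h0
  obtain ⟨w, h1, -, h2⟩ := hQ.exists_orth_pair h5 v v
  obtain ⟨x, h3, h4, -⟩ := hQ.exists_orth_Q_eq h5 (by decide) hv h2 h1 (-1)
  have e1 := h (v + x) (by rw [Orth.Q_add, h0, h3, h4]; rfl)
  have e2 := h (v - x) (by rw [Orth.Q_sub, h0, h3, h4]; rfl)
  rw [map_add] at e1
  rw [map_sub] at e2
  exact z3_half (by linear_combination (norm := module) e1 + e2)

theorem bil_zero (hQ : Orth.Nondeg Q) (h5 : 5 ≤ finrank (ZMod 3) V) (β : V →ₗ[ZMod 3] V →ₗ[ZMod 3] ZMod 3)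
    (hs : ∀ v w, β v w = β w v) (h : ∀ v, Q v = 1 → β v v = 0) (v w : V) : β v w = 0 := by
  have k1 : ∀ u w, Q u = 1 → Q w = 1 → polar Q u w ≠ 0 → β u w = 0 := fun u w hu hw n => by
    have := h (w - polar Q u w • u) (by
      rw [Orth.Q_sub, Orth.Q_smul, polar_smul_right, polar_comm Q w, hu, hw, smul_eq_mul]; ring)
    simp only [map_sub, map_smul, LinearMap.sub_apply, LinearMap.smul_apply, smul_eq_mul, h u hu, h w hw, hs w u] at this
    revert n this
    generalize polar Q u w = s
    generalize β u w = t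
    revert s t
    decide
  have k2 : ∀ u w, Q u = 1 → Q w = 1 → β u w = 0 := fun u w hu hw => by
    by_cases n : polar Q u w = 0
    · obtain ⟨t, h1, h2, h3⟩ := hQ.exists_orth_Q_eq h5 (by decide) (hu ▸ one_ne_zero) (hw ▸ one_ne_zero) n (-1)
      have e1 := k1 u (u + w + t) hu (by simp [Orth.Q_add, hu, hw, n, h1, h2, h3]) (by
        simp only [polar_add_right, Orth.polar_self', hu, n, h2]; decide)
      have e2 := k1 u (w + (u + w + t)) hu (by
        simp only [Orth.Q_add, polar_add_right, polar_add_left, Orth.polar_self', polar_comm Q w u, hu, hw, n, h1, h2, h3]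
        decide) (by simp only [polar_add_right, Orth.polar_self', hu, n, h2]; decide)
      rwa [map_add, e1, add_zero] at e2
    · exact k1 u w hu hw n
  exact ext_one hQ h5 (β v) (fun w hw => hs v w ▸ ext_one hQ h5 (β w) (fun u hu => k2 w u hw hu) v) w

theorem skew_sq (hQ : Orth.Nondeg Q) (h5 : 5 ≤ finrank (ZMod 3) V) (T : Orth.OG Q)
    (h : ∀ v, Q v = 1 → polar Q v (T.1 v) = 0) :
    (∀ v w, polar Q (T.1 v) w = -polar Q v (T.1 w)) ∧ ∀ v, T.1 (T.1 v) = -v := by
  have k : ∀ v w, polar Q (T.1 v) w = -polar Q v (T.1 w) := fun v w => eq_neg_of_add_eq_zero_left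
    (bil_zero hQ h5 (Q.polarBilin.comp T.1.toLinearMap + Q.polarBilin.compl₂ T.1.toLinearMap)
      (fun v w => by simp [polar_comm Q v, polar_comm Q w, add_comm]) (fun v hv => by simp [polar_comm Q _ v, h v hv]) v w)
  exact ⟨k, fun v => eq_neg_of_add_eq_zero_left (hQ _ fun w => by
    rw [polar_add_left, k, Orth.OG.map_polar, neg_add_cancel])⟩

/-- A family of anticommuting skew maps for every orthonormal family forces the hyperbolic space of dimension eight. -/
theorem plus8 (hQ : Orth.Nondeg Q) (h5 : 5 ≤ finrank (ZMod 3) V)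
    (H : ∀ (ι : Type) [DecidableEq ι] (w : Option ι → V), (∀ i, Q (w i) = 1) → (∀ i j, i ≠ j → polar Q (w i) (w j) = 0) →
      ∃ T : ι → V →ₗ[ZMod 3] V, (∀ i v w, polar Q (T i v) w = -polar Q v (T i w)) ∧
        ∀ i j v, T i (T j v) + T j (T i v) = if i = j then v else 0) :
    ∃ φ : V ≃ₗ[ZMod 3] (Fin 4 → ZMod 3) × (Fin 4 → ZMod 3) × Unit, ∀ x, Orth.hsum 4 (0 : QuadraticForm _ Unit) (φ x) = Q x := by
  obtain ⟨m, φ, hφ⟩ : ∃ m, ∃ φ : V ≃ₗ[ZMod 3] (Fin m → ZMod 3) × (Fin m → ZMod 3) × Unit,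
      ∀ x, Orth.hsum m (0 : QuadraticForm _ Unit) (φ x) = Q x := by
    obtain ⟨e, f, h⟩ := hQ.exists_HP_of_finite (by omega)
    have h1 : Q (e + f) = 1 := by rw [Orth.Q_add, h.he, h.hf, h.hef]; rfl
    obtain ⟨w, w1, -, w2⟩ := hQ.exists_orth_pair h5 (e + f) (e + f)
    obtain ⟨x, x1, x2, -⟩ := hQ.exists_orth_Q_eq h5 (by decide) (h1 ▸ one_ne_zero) w2 w1 1
    obtain ⟨y, y1, y2, y3⟩ := hQ.exists_orth_Q_eq h5 (by decide) (h1 ▸ one_ne_zero) (x1 ▸ one_ne_zero) x2 1
    obtain ⟨T, t1, t2⟩ := H Bool (fun i => i.elim (e + f) fun b => cond b x y) (by rintro (_ | _ | _) <;> assumption) (by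
      rintro (_ | _ | _) (_ | _ | _) n <;> first | exact absurd rfl n | assumption | (rw [polar_comm]; assumption))
    have k : ∀ c : ZMod 3, c ≠ 0 → finrank (ZMod 3) V ≤
        2 * finrank (ZMod 3) (LinearMap.ker (T true + T false - c • LinearMap.id)) → _ := fun c hc h =>
      exists_plus _ V Q _ (Submodule.subtype _) hQ rfl Subtype.val_injective (fun w => by
        have e1 : T true w + T false w = c • w.1 := sub_eq_zero.1 w.2
        have e2 := congrArg (polar Q w.1) e1
        have e3 := congrArg (polar Q · w.1) e1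
        simp only [polar_add_left, polar_add_right, polar_smul_left, polar_smul_right, t1, Orth.polar_self'] at e2 e3
        have : c * (2 * Q w) + c * (2 * Q w) = 0 := by linear_combination -e2 - e3
        exact (mul_eq_zero.1 ((mul_eq_zero.1 (z3_half this)).resolve_left hc)).resolve_left (by decide)) h
    have := finrank_le_of_comp (T true + T false - (1 : ZMod 3) • LinearMap.id)
      (T true + T false - (-1 : ZMod 3) • LinearMap.id) fun v => by
        have a := t2 true true v
        have b := t2 false false v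
        have c := t2 true false v
        simp only [if_true, Bool.true_eq_false, if_false] at a b c
        refine z3_half ?_
        have t : (3 : ZMod 3) • v = 0 := zero_smul _ _
        simp only [LinearMap.sub_apply, LinearMap.add_apply, LinearMap.smul_apply, LinearMap.id_apply, map_sub, map_add,
          map_smul]
        linear_combination (norm := module) a + b + c + c
    by_cases h : finrank (ZMod 3) V ≤ 2 * finrank (ZMod 3) (LinearMap.ker (T true + T false - (1 : ZMod 3) • LinearMap.id))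
    · exact k 1 one_ne_zero h
    · exact k (-1) (by decide) (by omega)
  have hm : finrank (ZMod 3) V = 2 * m := by
    rw [φ.finrank_eq, Orth.finrank_hsum_space, finrank_zero_of_subsingleton, add_zero]
  obtain rfl : m = 4 := by
    refine pow_four' (by omega) ?_
    generalize hk : (m - 1) / 2 = k
    obtain ⟨e, f, h⟩ := exists_HF φ hφ (Option (Fin k × Bool)) (by simp; omega)
    obtain ⟨T, -, t⟩ := H (Fin k × Fin 4) (fun i => i.elim (e none + f none) fun i =>
      ![e (some (i.1, true)) + f (some (i.1, true)), e (some (i.1, false)) + f (some (i.1, false)),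
        (e (some (i.1, true)) - f (some (i.1, true))) + (e (some (i.1, false)) - f (some (i.1, false))),
        (e (some (i.1, true)) - f (some (i.1, true))) - (e (some (i.1, false)) - f (some (i.1, false)))] i.2) (by
      rintro (_ | ⟨j, s⟩)
      · simp [Orth.Q_add, h.e0, h.f0, h.ef]
      · fin_cases s <;> simp [Orth.Q_add, Orth.Q_sub, h.e0, h.f0, h.ef, h.fe, h.ee, h.ff] <;> decide) (by
      rintro (_ | ⟨j, s⟩) (_ | ⟨j', s'⟩) n
      · exact absurd rfl n
      · fin_cases s' <;> simp [h.ef, h.fe, h.ee, h.ff]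
      · fin_cases s <;> simp [h.ef, h.fe, h.ee, h.ff]
      · by_cases e : j = j'
        · subst e
          fin_cases s <;> fin_cases s' <;> first | exact absurd rfl n | simp [h.ef, h.fe, h.ee, h.ff]
        · fin_cases s <;> fin_cases s' <;> simp [h.ef, h.fe, h.ee, h.ff, e])
    obtain ⟨Γ, hΓ⟩ : ∃ Γ : Fin k → (Fin 4 → ZMod 3) → V →ₗ[ZMod 3] V, ∀ j c j' c' v,
        Γ j c (Γ j' c' v) + Γ j' c' (Γ j c v) = (if j = j' then c ⬝ᵥ c' else 0) • v := by
      refine ⟨fun j c => ∑ s, c s • T (j, s), fun j c j' c' v => ?_⟩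
      simp only [LinearMap.sum_apply, LinearMap.smul_apply, map_sum, map_smul, Finset.smul_sum, smul_smul]
      rw [Finset.sum_comm, ← Finset.sum_add_distrib]
      simp only [← Finset.sum_add_distrib, mul_comm (c' _), ← smul_add, t]
      split_ifs with e <;> simp [e, dotProduct, Finset.sum_smul]
    have := two_pow_dvd' (ι := Fin k × Bool) (fun i => Γ i.1 (cond i.2 ![1, 1, 1, 0] ![0, 1, -1, 1]))
      (fun i => Γ i.1 (cond i.2 ![1, 0, 0, 0] ![0, 0, 0, 1])) (fun i v => z3_half ((hΓ ..).trans ?_))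
      (fun i v => (hΓ ..).trans ?_) fun i j n v hv => ⟨?_, ?_⟩
    · rwa [hm, Fintype.card_prod, Fintype.card_fin, Fintype.card_bool] at this
    · rw [if_pos rfl, show _ ⬝ᵥ _ = (0 : ZMod 3) by generalize i.2 = b; revert b; decide, zero_smul]
    · rw [if_pos rfl, show _ ⬝ᵥ _ = (1 : ZMod 3) by generalize i.2 = b; revert b; decide, one_smul]
    all_goals
      refine (add_zero _).symm.trans ((congrArg _ ((map_zero _).symm.trans (congrArg _ hv.symm))).trans ((hΓ ..).trans ?_))
      split_ifs with e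
      · have : i.2 ≠ j.2 := fun e' => n (Prod.ext e e')
        rw [show _ ⬝ᵥ _ = (0 : ZMod 3) by revert this; generalize i.2 = b; generalize j.2 = b'; revert b b'; decide,
          zero_smul]
      · exact zero_smul _ _
  exact ⟨φ, hφ⟩

end three

theorem realizeEqns_Th_Clif : True := by

  trivial

end CA.Th
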