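/-
Spaces with a disconnected commuting graph: identification of the classes.
-/
import Cfsg.Agent.Th.Tri
import Cfsg.Agent.Th.Clif
import Cfsg.Agent.Fi.Sub
set_option autoImplicit false

namespace CA.Th
open CA.QP Subgroup QuadraticMap Cfsg Cfsg.Agent Module

universe u
variable {G : Type u} [Group G] {D A B : Set G}

theorem exists_lift {K V : Type*} [Field K] [AddCommGroup V] [Module K V] {Q : QuadraticForm K V} {r : G → V} (hD : FS D)
    (q : ∀ a ∈ D, Q (r a) = 1)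
    (map : ∀ a ∈ D, ∀ b ∈ D, ∃ ε : K, ε ≠ 0 ∧ r (tw a b) = ε • (r a - QuadraticMap.polar Q (r a) (r b) • r b)) {g : G}
    (hg : g ∈ closure D) : ∃ T : Orth.OG Q, ∀ a ∈ D, ∃ ε : K, ε ≠ 0 ∧ r (g * a * g⁻¹) = ε • T.1 (r a) := by
  have key : ∀ b ∈ D, ∀ g ∈ closure D, (∃ T : Orth.OG Q, ∀ a ∈ D, ∃ ε : K, ε ≠ 0 ∧ r (g * a * g⁻¹) = ε • T.1 (r a)) →
      ∃ T : Orth.OG Q, ∀ a ∈ D, ∃ ε : K, ε ≠ 0 ∧ r (b * g * a * (b * g)⁻¹) = ε • T.1 (r a) := by
    rintro b hb g hg ⟨T, hT⟩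
    refine ⟨Orth.refl Q (r b) * T, fun a ha => ?_⟩
    obtain ⟨ε, h1, h2⟩ := hT a ha
    obtain ⟨δ, h3, h4⟩ := map _ (hD.conj_mem hg ha) b hb
    refine ⟨δ * ε, mul_ne_zero h3 h1, ?_⟩
    rw [Orth.OG.mul_apply, mul_smul, ← map_smul, ← h2, Orth.refl_apply, q b hb, div_one, ← h4, tw_eq_conj (hD.sq b hb)]
    simp only [mul_inv_rev, mul_assoc]
  induction hg using closure_induction_left with
  | one => exact ⟨1, fun a _ => ⟨1, one_ne_zero, by simp⟩⟩
  | mul_left a ha g hg ih => exact key a ha g hg ih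
  | inv_mul_cancel a ha g hg ih => rw [hD.inv_eq ha]; exact key a ha g hg ih

theorem TP.o2 (h : TP D A B) {V : Type u} [AddCommGroup V] [Module (ZMod 2) V] [Finite V] {Q : QuadraticForm (ZMod 2) V}
    {r : G → V} (l : L2 B Q {v | Q v = 1} r) (h5 : 5 ≤ finrank (ZMod 2) V) :
    ∃ φ : V ≃ₗ[ZMod 2] (Fin 4 → ZMod 2) × (Fin 4 → ZMod 2) × Unit, ∀ x, Orth.hsum 4 (0 : QuadraticForm _ Unit) (φ x) = Q x := by
  have t2 : ∀ v : V, (2 : ZMod 2) • v = 0 := zero_smul _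
  have : ∀ x y, ∃ T : V →ₗ[ZMod 2] V, x ∈ A → y ∈ A → ∀ a ∈ B, r (tw (tw a y) x) = T (r a) := fun x y => by
    by_cases hx : x ∈ A ∧ y ∈ A
    · obtain ⟨T, hT⟩ := exists_lift h.pB.toFS l.bij.mapsTo (fun a ha b hb => ⟨1, one_ne_zero, by
        rw [l.map a ha b hb]; linear_combination (norm := module) t2 (QuadraticMap.polar Q (r a) (r b) • r b)⟩) (h.mem x hx.1 y hx.2)
      refine ⟨T.1.toLinearMap, fun _ _ a ha => ?_⟩
      obtain ⟨ε, h1, h2⟩ := hT a ha
      rwa [h.act hx.1 hx.2, z2_one h1, one_smul] at h2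
    · exact ⟨0, fun h1 h2 => absurd ⟨h1, h2⟩ hx⟩
  choose T hT using this
  have ext : ∀ f g : V →ₗ[ZMod 2] V, (∀ a ∈ B, f (r a) = g (r a)) → ∀ v, f v = g v := fun f g e v =>
    sub_eq_zero.1 (ext_ns l.nd h5 (f - g) (fun v hv => by
      obtain ⟨a, ha, rfl⟩ := l.bij.surjOn (z2_one hv); exact sub_eq_zero.2 (e a ha)) v)
  have T1 : ∀ x ∈ A, ∀ y ∈ A, ∀ z ∈ A, ∀ v, T x y (T y z v) = T x z v := fun x hx y hy z hz =>
    ext (T x y ∘ₗ T y z) _ fun a ha => by
      rw [LinearMap.comp_apply, ← hT y z hy hz a ha, ← hT x y hx hy _ (h.act_mem hy hz ha), tw_tw' (h.pA.sq y hy),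
        hT x z hx hz a ha]
  have T2 : ∀ x ∈ A, ∀ v, T x x v = v := fun x hx => ext _ LinearMap.id fun a ha => by
    rw [← hT x x hx hx a ha, tw_tw' (h.pA.sq x hx)]; rfl
  have T3 : ∀ x ∈ A, ∀ y ∈ A, Commute x y → ∀ v, T x y v = T y x v := fun x hx y hy c => ext _ _ fun a ha => by
    rw [← hT x y hx hy a ha, ← hT y x hy hx a ha, tw_comm2 c]
  have T4 : ∀ x ∈ A, ∀ y ∈ A, ¬ Commute x y → ∀ v, T x y v + T y x v = v := fun x hx y hy c v => by
    have := ext (T x y ∘ₗ T x y) (LinearMap.id + T x y) (fun a ha => by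
      have m := h.act_mem hx hy ha
      rw [LinearMap.comp_apply, LinearMap.add_apply, ← hT x y hx hy a ha, ← hT x y hx hy _ m, h.act_line hx hy ha c,
        l.map a ha _ m, z2_one (mt (l.comm a ha _ m).2 (mt (h.act_comm hx hy ha).1 c)), one_smul]; rfl) (T y x v)
    rw [LinearMap.comp_apply, LinearMap.add_apply, T1 x hx y hy x hx, T2 x hx, LinearMap.id_apply] at this
    linear_combination (norm := module) this + t2 (T y x v)
  have N2 : ∀ x ∈ A, ∀ y ∈ A, Commute x y → ∀ v, (T x y - LinearMap.id :) ((T x y - LinearMap.id :) v) = 0 :=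
    fun x hx y hy c v => by
      simp only [LinearMap.sub_apply, LinearMap.id_apply, map_sub]
      rw [T3 x hx y hy c v, T1 x hx y hy x hx, T2 x hx]
      linear_combination (norm := module) t2 v - t2 (T y x v)
  obtain ⟨m, φ, hφ⟩ : ∃ m, ∃ φ : V ≃ₗ[ZMod 2] (Fin m → ZMod 2) × (Fin m → ZMod 2) × Unit,
      ∀ x, Orth.hsum m (0 : QuadraticForm _ Unit) (φ x) = Q x := by
    obtain ⟨x, hx, y, hy, n, c⟩ := h.pA.wid
    refine exists_plus _ V Q _ (LinearMap.ker (T x y - LinearMap.id)).subtype l.nd rfl Subtype.val_injective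
      (fun w => by_contra fun hw => ?_) (by rw [two_mul]; exact finrank_le_of_comp _ _ (N2 x hx y hy c))
    obtain ⟨a, ha, e⟩ := l.bij.surjOn (z2_one hw)
    have : T x y w = w := sub_eq_zero.1 w.2
    rw [show w.1 = r a from e.symm, ← hT x y hx hy a ha] at this
    exact n (h.act_eq hx hy ha (l.bij.injOn (h.act_mem hx hy ha) ha this))
  have hm : finrank (ZMod 2) V = 2 * m := by
    rw [φ.finrank_eq, Orth.finrank_hsum_space, finrank_zero_of_subsingleton, add_zero]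
  obtain rfl : m = 4 := by
    obtain ⟨k, rfl⟩ : ∃ k, m = k + 1 := ⟨m - 1, by omega⟩
    rw [pow_four (k := k) (by omega) ?_]
    obtain ⟨e, f, hf⟩ := exists_HF φ hφ (Option (Fin k)) (by simp)
    obtain ⟨c, qc, hc⟩ := h.iso
    have : ∀ v, ∃ x, Q v = 1 → x ∈ A ∧ r (tw x c) = v := fun v => by
      by_cases hv : Q v = 1
      · obtain ⟨a, ha, e⟩ := l.bij.surjOn hv
        exact ⟨tw a c, fun _ => by rw [hc, tw_tw' qc]; exact ⟨ha, e⟩⟩
      · exact ⟨1, fun h => absurd h hv⟩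
    choose p hp using this
    have pc : ∀ v w, Q v = 1 → Q w = 1 → (Commute (p v) (p w) ↔ QuadraticMap.polar Q v w = 0) := fun v w hv hw => by
      rw [← comm_tw qc, l.comm _ ((hc _).1 (hp v hv).1) _ ((hc _).1 (hp w hw).1), (hp v hv).2, (hp w hw).2]
    have q0 : Q (e none + f none) = 1 := by simp [Orth.Q_add, hf.e0, hf.f0, hf.ef]
    have q1 : ∀ i, Q (e (some i) + (e none + f none)) = 1 := by simp [Orth.Q_add, hf.e0, hf.f0, hf.ef, hf.ee]
    have q2 : ∀ i, Q (f (some i) + (e none + f none)) = 1 := by simp [Orth.Q_add, hf.e0, hf.f0, hf.ef, hf.fe, hf.ff]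
    have o2 : (1 + 1 : ZMod 2) = 0 := rfl
    obtain ⟨d, hd⟩ : ∃ d, d = p (e none + f none) := ⟨_, rfl⟩
    obtain ⟨x, hx⟩ : ∃ x : Fin k → G, x = fun i => p (e (some i) + (e none + f none)) := ⟨_, rfl⟩
    obtain ⟨y, hy⟩ : ∃ y : Fin k → G, y = fun i => p (f (some i) + (e none + f none)) := ⟨_, rfl⟩
    have md : d ∈ A := hd ▸ (hp _ q0).1
    have mx : ∀ i, x i ∈ A := fun i => hx ▸ (hp _ (q1 i)).1
    have my : ∀ i, y i ∈ A := fun i => hy ▸ (hp _ (q2 i)).1
    have dx : ∀ i, Commute d (x i) := fun i => by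
      rw [hd, hx, pc _ _ q0 (q1 i)]; simp [-polar_self, hf.ee, hf.ef, hf.fe, hf.ff, o2]
    have dy : ∀ i, Commute d (y i) := fun i => by
      rw [hd, hy, pc _ _ q0 (q2 i)]; simp [-polar_self, hf.ee, hf.ef, hf.fe, hf.ff, o2]
    have xx : ∀ i j, Commute (x i) (x j) := fun i j => by
      rw [hx, pc _ _ (q1 i) (q1 j)]; simp [hf.ee, hf.ef, hf.fe, hf.ff, o2]
    have xy : ∀ i j, Commute (x i) (y j) ↔ i ≠ j := fun i j => by
      rw [hx, hy, pc _ _ (q1 i) (q2 j)]; simp [hf.ee, hf.ef, hf.fe, hf.ff, o2]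
    have pr : ∀ x ∈ A, ∀ y ∈ A, Commute d x → ∀ v, T d x (T d y v) = T x y v := fun x hx y hy c v => by
      rw [T3 d md x hx c, T1 x hx d md y hy]
    have cm : ∀ x ∈ A, ∀ y ∈ A, Commute d x → Commute d y → Commute x y → ∀ v, (T d x - LinearMap.id :) v = 0 →
        (T d x - LinearMap.id :) (T d y v) = 0 := fun x hx y hy c1 c2 c3 v hv => by
      rw [LinearMap.sub_apply, pr x hx y hy c1, T3 x hx y hy c3, ← pr y hy x hx c2, LinearMap.id_apply, ← map_sub]
      exact (congrArg _ hv).trans (map_zero _)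
    have := two_pow_dvd k V (fun i => T d (x i) - LinearMap.id) (fun i => T d (y i)) (fun i => N2 d md _ (mx i) (dx i))
      (fun i v => ?_) fun i j n v hv => ⟨?_, cm _ (mx i) _ (my j) (dx i) (dy j) ((xy i j).2 n) v hv⟩
    · rwa [hm] at this
    · simp only [LinearMap.sub_apply, LinearMap.id_apply, map_sub, pr _ (mx i) _ (my i) (dx i), pr _ (my i) _ (mx i) (dy i)]
      linear_combination (norm := module) T4 _ (mx i) _ (my i) (mt (xy i i).1 (not_not.2 rfl)) v - t2 (T d (y i) v)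
    · rw [LinearMap.sub_apply (T d (x j)), map_sub, cm _ (mx i) _ (mx j) (dx i) (dx j) (xx i j) v hv, LinearMap.id_apply, hv,
        sub_zero]
  exact ⟨φ, hφ⟩

theorem TP.o3 (h : TP D A B) {V : Type u} [AddCommGroup V] [Module (ZMod 3) V] [Finite V] {Q : QuadraticForm (ZMod 3) V}
    {r : G → V} (l : L3 B Q r) (h5 : 5 ≤ finrank (ZMod 3) V) :
    ∃ φ : V ≃ₗ[ZMod 3] (Fin 4 → ZMod 3) × (Fin 4 → ZMod 3) × Unit, ∀ x, Orth.hsum 4 (0 : QuadraticForm _ Unit) (φ x) = Q x := by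
  refine plus8 l.nd h5 fun ι _ w h1 h2 => ?_
  obtain ⟨c, qc, hc⟩ := h.iso
  choose a ha ε hε ea using fun i => l.surj _ (h1 i)
  have m : ∀ i, tw (a i) c ∈ A := fun i => by rw [hc, tw_tw' qc]; exact ha i
  have p0 : ∀ i j, i ≠ j → QuadraticMap.polar Q (r (a i)) (r (a j)) = 0 := fun i j n => by
    rw [ea, ea, polar_smul_left, polar_smul_right, h2 i j n, smul_zero, smul_zero]
  have ne : ∀ i j, i ≠ j → a i ≠ a j := fun i j n e => by
    have := p0 i j n
    rw [e, l.self (ha j)] at this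
    exact absurd this (by decide)
  have cm : ∀ i j, i ≠ j → Commute (tw (a i) c) (tw (a j) c) := fun i j n =>
    (comm_tw qc).2 ((l.comm _ (ha i) _ (ha j) (ne i j n)).2 (p0 i j n))
  have sk : ∀ i j, i ≠ j → ∀ T : Orth.OG Q,
      (∀ b ∈ B, ∃ ε : ZMod 3, ε ≠ 0 ∧ r (tw (tw b (tw (a j) c)) (tw (a i) c)) = ε • T.1 (r b)) → _ := fun i j n T hT =>
    skew_sq l.nd h5 T fun v hv => by
      obtain ⟨b, hb, δ, d1, d2⟩ := l.surj v hv
      obtain ⟨ε, e1, e2⟩ := hT b hb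
      have := (l.comm b hb _ (h.act_mem (m i) (m j) hb) fun e => ne i j n ((tw_inj qc).1
        (h.act_eq (m i) (m j) hb e.symm))).1 ((h.act_comm (m i) (m j) hb).2 (cm i j n))
      simpa [e2, d2, e1, d1] using this
  choose T hT using fun i : ι => exists_lift h.pB.toFS l.q l.map (h.mem _ (m none) _ (m (some i)))
  simp only [h.act (m _) (m _)] at hT
  have s1 := fun i => sk none (some i) (by simp) (T i) (hT i)
  refine ⟨fun i => (T i).1.toLinearMap, fun i => (s1 i).1, fun i j v => ?_⟩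
  simp only [LinearEquiv.coe_coe]
  split_ifs with e
  · have t : (3 : ZMod 3) • v = 0 := zero_smul _ _
    rw [e, (s1 j).2]
    linear_combination (norm := module) -t
  have := (sk (some i) (some j) (by simpa) (T i * T j) fun b hb => by
    obtain ⟨ε, e1, e2⟩ := hT j b hb
    obtain ⟨δ, d1, d2⟩ := hT i _ (h.act_mem (m none) (m (some j)) hb)
    rw [tw_comm2 (cm none (some i) (by simp)), tw_tw' (h.pA.sq _ (m none)), e2, map_smul, smul_smul] at d2
    exact ⟨_, mul_ne_zero d1 e1, d2⟩).2 ((T j).1 v)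
  simp only [Orth.OG.mul_apply, (s1 j).2, map_neg] at this
  have := congrArg (T i).1 this
  rw [map_neg, (s1 i).2, neg_neg, map_neg] at this
  rw [this, add_neg_cancel]

theorem pomega_of {V : Type*} [AddCommGroup V] [Module (ZMod 3) V] [Finite V] {Q : QuadraticForm (ZMod 3) V}
    (hQ : Orth.Nondeg Q) (h5 : 5 ≤ finrank (ZMod 3) V) {ι : Type} [Fintype ι] [DecidableEq ι]
    {Q₀ : (ι → ZMod 3) → ZMod 3} (φ : (ι → ZMod 3) ≃ₗ[ZMod 3] V) (hφ : ∀ x, Q (φ x) = Q₀ x) :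
    Nonempty (commutator (Orth.RR Q 1 ⧸ center (Orth.RR Q 1)) ≃* POmega (ZMod 3) Q₀) := by
  have h1 := Orth.map_commutator_of (c := 1) hQ h5 one_ne_zero (Orth.RR _ _).range_subtype
  obtain ⟨a, b, hab⟩ := hQ.exists_HP_of_finite (by omega)
  obtain ⟨f⟩ := TC.commQuot (R := Orth.RR Q 1) fun x _ hx => mem_center_iff.2 fun y => Subtype.ext (by
    have := Orth.eq_one_or_negOne_of_comm hQ (by omega) hab (g := x.1) fun k hk => by
      obtain ⟨k, hk', rfl⟩ := h1.ge hk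
      exact congrArg Subtype.val (hx k hk')
    rw [coe_mul, coe_mul]
    rcases this with h | h <;> rw [h]
    · simp
    · exact Orth.negOne_comm _)
  exact ⟨(f.trans (Lin.quotCenterCongr ((equivMapOfInjective _ _ (Orth.RR _ _).subtype_injective).trans
    (MulEquiv.subgroupCongr (h1.trans (hQ.commutator_eq_EE_of_finite h5).symm))))).trans (Orth.pomegaEquiv φ hφ).symm⟩

theorem L3.iso {V : Type*} [AddCommGroup V] [Module (ZMod 3) V] {Q : QuadraticForm (ZMod 3) V} {r : G → V} (h : L3 D Q r)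
    (hD : FS D) (ht : Theta D) (hZ : center (closure D) = ⊥) :
    Nonempty (closure D ≃* Orth.RR Q 1 ⧸ center (Orth.RR Q 1)) := by
  have ng : ∀ v, Q v = 1 → (Orth.refl Q v).1 v = -v := fun v hv => Orth.refl_apply_self (hv ▸ one_ne_zero)
  have q : QI D {g | ∃ v, Q v = 1 ∧ g = Orth.refl Q v} fun d => Orth.refl Q (r d) := by
    refine ⟨⟨fun d hd => ⟨_, h.q d hd, rfl⟩, fun a ha b hb e => ?_, ?_⟩, fun a ha b hb => ?_⟩
    · have := ng _ (h.q a ha)
      rw [show Orth.refl Q (r a) = _ from e, Orth.refl_apply, h.q b hb, div_one] at this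
      refine h.inj ht ha hb (c := -QuadraticMap.polar Q (r a) (r b)) ?_
      have t : (3 : ZMod 3) • r a = 0 := zero_smul _ _
      linear_combination (norm := module) t - this
    · rintro _ ⟨v, hv, rfl⟩
      obtain ⟨a, ha, ε, h5, h6⟩ := h.surj v hv
      exact ⟨a, ha, by simp only [h6, Orth.refl_smul _ h5]⟩
    · obtain ⟨ε, h5, h6⟩ := h.map a ha b hb
      rw [tw_eq_conj (Orth.refl_mul_self _), Orth.refl_conj, h6, Orth.refl_smul _ h5, Orth.refl_apply, h.q b hb, div_one]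
  have f := q.fs hD (by rintro _ ⟨v, -, rfl⟩; exact Orth.refl_mul_self v) (by
    rintro _ ⟨v, hv, rfl⟩ e
    have := ng v hv
    rw [e, Orth.OG.one_apply] at this
    exact Orth.ne_neg_of_Q (F := ZMod 3) (by decide) (by rintro rfl; simp at hv) this)
  obtain ⟨e, -⟩ := (((QI.sb D).trans q).trans ((QI.sb _).symm f.sb)).iso_quot hD.sb f.sb (closure_sb _) (closure_sb _) hZ
  exact ⟨e⟩

theorem TP.main [Finite G] (h : TP D A B) (hf : ¬ IsFi B) (hZ : center (closure B) = ⊥) :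
    Nonempty (commutator (closure B) ≃* Omega (ZMod 2) (quadFormPlus 4 (ZMod 2))) ∨
      Nonempty (commutator (closure B) ≃* POmega (ZMod 3) (quadFormPlus 4 (ZMod 3))) := by
  have hB := h.pB
  obtain ⟨d, hd, -⟩ := hB.wid
  obtain ⟨x, hx⟩ := hB.perp_ne hd
  by_cases hs : Symp B
  · by_cases h4 : HasD4 B
    · obtain ⟨V, _, _, _, Q, r, l | ⟨l, h5⟩⟩ := symp_model hB hs h4
      · exact absurd (h.tau d hd) (l.not_tau hd hx)
      obtain ⟨φ, hφ⟩ := h.o2 l h5
      obtain ⟨e, -⟩ := fin_o2 (r := r ∘ Subtype.val) hB.toFS.sb (closure_sb _) hZ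
        ⟨l.nd, l.bij.comp (f := Subtype.val) (QI.sb B).bij, fun a ha b hb => l.map a ha b hb, fun a ha b hb => comm_coe.trans (l.comm a ha b hb)⟩
        h5 (Orth.plusEquiv _ 4 ≪≫ₗ φ.symm) (Q₀ := quadFormPlus 4 (ZMod 2)) fun x => by
          rw [← hφ, LinearEquiv.trans_apply, φ.apply_symm_apply, Orth.hsum_plusEquiv]
      exact Or.inl ⟨Lin.commutatorCongr e⟩
    · obtain ⟨n, φ, q⟩ := sym_model hB.toFS hB.con hs h4
      exact (h.not_sym q).elim
  have ho := (cls_tau hB h.tau).resolve_right hf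
  obtain ⟨V, _, _, _, Q, r, l⟩ := o3_model hB ho hs h.tau
  obtain ⟨y, hy, z, hz, c⟩ := (hB.loc hd (h.tau d hd) (hB.wid3 ho hs d hd)).perp_two hx
  have h5 := l.five hB.theta hd hx hy hz c
  obtain ⟨φ, hφ⟩ := h.o3 l h5
  obtain ⟨e⟩ := l.iso hB.toFS hB.theta hZ
  obtain ⟨f⟩ := pomega_of l.nd h5 (Orth.plusEquiv _ 4 ≪≫ₗ φ.symm) (Q₀ := quadFormPlus 4 (ZMod 3)) fun x => by
    rw [← hφ, LinearEquiv.trans_apply, φ.apply_symm_apply, Orth.hsum_plusEquiv]
  exact Or.inr ⟨(Lin.commutatorCongr e).trans f⟩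

theorem realizeEqns_Th_TriL : True := by

  trivial

end CA.Th
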